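import Cfsg.Agent.H869.EPO.Q2Geo
import Cfsg.Agent.H355.EPO.SpinPol

/-!
# S5745, OWN characteristic, `T = Sp₆(2)`, the last node: the state `Q2` (helper355)

`index_le_spin` : `|G : H| ≤ n (n + 1)`, `n = |Y : P_{I - i}|`, if the residue `K` has 15 vertices of type `i` and `P_{I - i}`
has four double cosets.
-/

set_option autoImplicit false
set_option linter.unusedSectionVars false

namespace Cfsg.Agent.H355.EPO

open Cfsg.Agent.H284 Cfsg.Agent.H209.EPX Cfsg.Agent.H737.EPO Cfsg.Agent.H869.EPO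
open scoped Pointwise

section

variable {G Y : Type*} [Group G] [Finite G] [Group Y] [Finite Y] {H N R : Subgroup G}
  {e : N ≃* (Fin 1 → Y)} {I : Type*} {S : PSys Y 2 I} [IsSimpleGroup Y] (hY : ∃ a b : Y, a * b ≠ b * a)
  {i : I} {t : G} (q : Q2 H R e S i t)

include hY q

set_option maxHeartbeats 2000000 in
theorem index_le_spin {K : Set I} (hiK : i ∈ K) (hK : K ≠ Set.univ) {s m : S.P K} {z : Y} {D : Set Y}
    (g : SG (S.P {i}ᶜ) (S.P K) D s m z) (hsi : (s : Y) ∈ S.P {i}) (hsP : (s : Y) ∉ S.P {i}ᶜ) {x : Y}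
    (hx : x ∈ S.P ∅) (three : ∀ y ∈ S.P {i}, y ∈ S.P ∅ ∨ (s : Y)⁻¹ * y ∈ S.P ∅ ∨ (x * s)⁻¹ * y ∈ S.P ∅)
    (h15 : (S.P (K \ {i})).relIndex (S.P K) = 15) (h3 : (S.P ∅).relIndex (S.P (K \ {i})) = 3) :
    H.index ≤ (S.P {i}ᶜ).index * ((S.P {i}ᶜ).index + 1) := by
  have hiu : ({i} : Set I) ≠ Set.univ := by
    intro h1
    apply hK
    rw [← Set.univ_subset_iff, ← h1]
    exact Set.singleton_subset_iff.2 hiK
  have hiu' : ∀ j : Fin 1, (fun _ => ({i} : Set I)) j ≠ Set.univ := fun _ => hiu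
  have hK' : ∀ j : Fin 1, (fun _ => K) j ≠ Set.univ := fun _ => hK
  obtain ⟨D₁, Q₁, hVD, hDP, hDp, hDn, hQp, hQn, hDQ', hQH, hQD⟩ := q.dq (fun _ => K) (VV_ne_bot e (i := 0) hK)
  obtain ⟨W, -, hWD, v⟩ := exists_vecB Nat.prime_two hDn hQp hQn hDQ' hQH hQD
  have hPH : PH H e S (fun _ => K) ≤ H := inf_le_left
  have hDH : D₁ ≤ H := hDP.trans hPH
  have hPP : PP e S (fun _ => K) ≤ PH H e S (fun _ => K) := PP_le_PH e S q.minN.le _
  set M := PH H e S (fun _ => ({i}ᶜ : Set I)) with hM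
  have hcD : ∀ a ∈ PH H e S (fun _ => K), ∀ w, w ∉ D₁ → a * w * a⁻¹ ∉ D₁ := by
    intro a ha w hwD h1
    apply hwD
    have := hDn a⁻¹ (inv_mem ha) _ h1
    have e2 : a⁻¹ * (a * w * a⁻¹) * a⁻¹⁻¹ = w := by group
    rwa [e2] at this
  have hconj : ∀ w ∈ W, w ∉ D₁ → ∃ a ∈ PP e S (fun _ => K), H ⊓ cj w H = cj a M := by
    intro w hw hwD
    apply q.conj_M hY hK' ⟨w, v.notMem_H hw hwD, rfl⟩
    refine hVD.trans (le_inf hDH ?_)
    rw [← cj_eq_of_nm (v.WD w hw)]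
    exact cj_mono hDH
  obtain ⟨w₀, hw₀, hw₀D, hw₀M⟩ : ∃ w ∈ W, w ∉ D₁ ∧ H ⊓ cj w H = M := by
    obtain ⟨w, hw, hwD⟩ : ∃ w ∈ W, w ∉ D₁ := by
      by_contra hcon
      push Not at hcon
      exact hWD (le_antisymm hcon v.DW)
    obtain ⟨a, ha, h1⟩ := hconj w hw hwD
    refine ⟨a⁻¹ * w * a⁻¹⁻¹, v.Wn _ (inv_mem (hPP ha)) w hw, hcD _ (inv_mem (hPP ha)) w hwD, ?_⟩
    rw [← PanelB.cj_two (inv_mem (hPH (hPP ha))), h1, cj_inv_cj]
  have hw₀H := v.notMem_H hw₀ hw₀D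
  have hww : w₀ * w₀ ∈ D₁ := by have := v.pow w₀ hw₀; rwa [pow_two] at this
  -- a vector with stabiliser `M^a` is `a w₀ a⁻¹`
  have huniq : ∀ w ∈ W, w ∉ D₁ → ∀ a ∈ PP e S (fun _ => K), H ⊓ cj w H = cj a M →
      (a * w₀ * a⁻¹)⁻¹ * w ∈ D₁ := by
    intro w hw hwD a ha h1
    have haP := hPP ha
    have h2 : H ⊓ cj (a⁻¹ * w * a⁻¹⁻¹) H = M := by
      rw [← PanelB.cj_two (inv_mem (hPH haP)), h1, cj_inv_cj]
    have h3 := q.line' (v.notMem_H (v.Wn _ (inv_mem haP) w hw) (hcD _ (inv_mem haP) w hwD)) hw₀H h2 hw₀M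
    have h4 : (a⁻¹ * w * a⁻¹⁻¹)⁻¹ * w₀ ∈ D₁ := by
      rw [← v.WH]
      exact ⟨W.mul_mem (W.inv_mem (v.Wn _ (inv_mem haP) w hw)) hw₀, h3⟩
    have h5 := inv_mem (hDn a haP _ h4)
    have e1 : (a * ((a⁻¹ * w * a⁻¹⁻¹)⁻¹ * w₀) * a⁻¹)⁻¹ = (a * w₀ * a⁻¹)⁻¹ * w := by group
    rwa [e1] at h5
  -- the representation
  let ι : S.P K →* PH H e S (fun _ => K) := MonoidHom.codRestrict ((sg e 0).comp (S.P K).subtype) _
    fun k => hPP ((sg_mem_pk e).2 k.2)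
  let ρ : S.P K →* MulAut v.Vec := (v.act hDn).comp ι
  let u : v.Vec := v.vec ⟨w₀, hw₀⟩
  have hsgP : ∀ {J : Set I} {y : Y}, y ∈ S.P J → sg e 0 y ∈ PP e S (fun _ => J) := fun hy => (sg_mem_pk e).2 hy
  have hρu : ∀ k : S.P K, ρ k u = v.vec ⟨sg e 0 (k : Y) * w₀ * (sg e 0 (k : Y))⁻¹,
      v.Wn _ (hPP (hsgP k.2)) w₀ hw₀⟩ := fun k => rfl
  have hsgM : ∀ y : Y, sg e 0 y ∈ cj w₀ H ↔ y ∈ S.P {i}ᶜ := by
    intro y
    have hyH : sg e 0 y ∈ H := q.minN.le (sg_mem e 0 y)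
    have h1 : sg e 0 y ∈ cj w₀ H ↔ sg e 0 y ∈ PP e S fun _ => {i}ᶜ := by
      rw [← PH_inf e S q.minN.le, ← hM, ← hw₀M]
      exact ⟨fun h => ⟨⟨hyH, h⟩, sg_mem e 0 y⟩, fun h => h.1.2⟩
    rw [h1]
    exact sg_mem_pk e
  have hstab : ∀ k : S.P K, ρ k u = u ↔ k ∈ (S.P {i}ᶜ).subgroupOf (S.P K) := by
    intro k
    rw [Subgroup.mem_subgroupOf, ← hsgM]
    exact v.act_fix_iff hDn hPH (ι k) ⟨w₀, hw₀⟩
  have hsq : ∀ y : v.Vec, y * y = 1 := fun y => by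
    have := v.pow_eq_one y
    rwa [pow_two] at this
  have hu1 : u ≠ 1 := v.vec_coe_ne_one.2 hw₀D
  have hk1 : ∀ k : S.P K, ρ k u ≠ 1 := by
    intro k h
    rw [map_eq_one_iff _ (MulEquiv.injective _)] at h
    exact hu1 h
  have hrm : ∀ (k l : S.P K) (y : v.Vec), ρ (k * l) y = ρ k (ρ l y) := fun k l y => by rw [map_mul]; rfl
  have hsurj : ∀ y : v.Vec, y ≠ 1 → ∃ k : S.P K, ρ k u = y := by
    intro y hy
    obtain ⟨⟨w, hw⟩, rfl⟩ := v.vec_surjective y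
    have hwD : w ∉ D₁ := fun h1 => hy (v.vec_eq_one.2 h1)
    obtain ⟨a, ha, h1⟩ := hconj w hw hwD
    have ha' := ha
    rw [PP_map] at ha
    obtain ⟨k, hk, rfl⟩ := ha
    refine ⟨⟨k, hk⟩, ?_⟩
    rw [hρu, v.vec_eq_iff]
    exact huniq w hw hwD _ ha' h1
  -- the fixed vectors of `V_i`
  let Z := v.fix hDn (VV e S fun _ => {i})
  have hPiK : S.P {i} ≤ S.P K := S.P_mono (Set.singleton_subset_iff.2 hiK)
  have hBi : S.P ∅ ≤ S.P {i} := S.P_mono (Set.empty_subset _)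
  have hBA : S.P ∅ ≤ S.P {i}ᶜ := S.P_mono (Set.empty_subset _)
  have hVPH : VV e S (fun _ => {i}) ≤ PH H e S (fun _ => K) := (VV_le_PP' e S _ _).trans hPP
  have hρB : ∀ k : S.P K, (k : Y) ∈ S.P ∅ → ρ k u = u := fun k hk => (hstab k).2 (Subgroup.mem_subgroupOf.2 (hBA hk))
  have hs'K : x * (s : Y) ∈ S.P K := mul_mem (hPiK (hBi hx)) s.2
  let s' : S.P K := ⟨x * s, hs'K⟩
  have claimZ : ∀ y ∈ Z, y = 1 ∨ y = u ∨ y = ρ s u ∨ y = ρ s' u := by
    intro y hy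
    obtain ⟨⟨w, hw⟩, rfl⟩ := v.vec_surjective y
    by_cases hwD : w ∈ D₁
    · exact Or.inl (v.vec_eq_one.2 hwD)
    right
    have h1 : VV e S (fun _ => {i}) ≤ cj w H := by
      have := (v.vec_mem_fix hDn hPH).1 hy
      rwa [inf_eq_left.2 hVPH] at this
    obtain ⟨a, ha, h2⟩ := q.conj_M hY hiu' ⟨w, v.notMem_H hw hwD, rfl⟩ (le_inf (hVPH.trans hPH) h1)
    have haK : a ∈ PP e S (fun _ => K) := (PP_le_iff e S).2 (fun _ => Set.singleton_subset_iff.2 hiK) ha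
    rw [PP_map] at ha
    obtain ⟨k, hk, rfl⟩ := ha
    have h4 : v.vec ⟨w, hw⟩ = ρ ⟨k, hPiK hk⟩ u := by
      rw [hρu, eq_comm, v.vec_eq_iff]
      exact huniq w hw hwD _ haK h2
    rcases three k hk with h5 | h5 | h5
    · left
      rw [h4]
      exact hρB _ h5
    · right; left
      rw [h4]
      have e1 : (⟨k, hPiK hk⟩ : S.P K) = s * (s⁻¹ * ⟨k, hPiK hk⟩) := by group
      rw [e1, hrm, hρB _ h5]
    · right; right
      rw [h4]
      have e1 : (⟨k, hPiK hk⟩ : S.P K) = s' * (s'⁻¹ * ⟨k, hPiK hk⟩) := by group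
      rw [e1, hrm, hρB _ h5]
  have huZ : u ∈ Z := by
    refine (v.vec_mem_fix hDn hPH).2 (inf_le_left.trans ?_)
    have h1 : VV e S (fun _ => {i}) ≤ M := (VV_le_PP' e S _ _).trans (PP_le_PH e S q.minN.le _)
    rw [← hw₀M] at h1
    exact h1.trans inf_le_right
  have hactZ : ∀ k : S.P K, (k : Y) ∈ S.P {i} → ∀ y : v.Vec, ρ k y ∈ Z ↔ y ∈ Z := by
    intro k hk y
    have h1 : cj ((ι k : PH H e S fun _ => K) : G) (VV e S fun _ => {i}) = VV e S fun _ => {i} :=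
      cj_eq_of_nm fun a ha => PP_nm e S (hsgP hk) ha
    have h2 := v.act_mem_fix hDn (S := VV e S fun _ => {i}) (x := y) (ι k)
    rw [h1] at h2
    exact h2
  have hsZ : ρ s u ∈ Z := (hactZ s hsi u).2 huZ
  have hsA : s ∉ (S.P {i}ᶜ).subgroupOf (S.P K) := fun h => hsP (Subgroup.mem_subgroupOf.1 h)
  have hsu : ρ s u ≠ u := fun h => hsA ((hstab s).1 h)
  have heq : ∀ a b : v.Vec, a * b = 1 → b = a := by
    intro a b h
    have h1 := hsq a
    rw [← h] at h1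
    exact (mul_left_cancel h1).symm
  have hs'u : ρ s' u = ρ s u * u := by
    rcases claimZ _ (mul_mem hsZ huZ) with h | h | h | h
    · exact absurd (heq _ _ h).symm hsu
    · exact absurd (mul_eq_right.1 h) (hk1 s)
    · exact absurd (mul_eq_left.1 h) hu1
    · exact h.symm
  let B : Subgroup (S.P K) := (S.P ∅).subgroupOf (S.P K)
  let A : Subgroup (S.P K) := (S.P {i}ᶜ).subgroupOf (S.P K)
  have hbB : ∀ b ∈ B, ρ (b * s) u = ρ s u ∨ ρ (b * s) u = ρ s u * u := by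
    intro b hb
    have hb' : (b : Y) ∈ S.P ∅ := Subgroup.mem_subgroupOf.1 hb
    have h1 : ρ (b * s) u ∈ Z := (hactZ (b * s) (mul_mem (hBi hb') hsi) u).2 huZ
    rcases claimZ _ h1 with h | h | h | h
    · exact absurd h (hk1 _)
    · exfalso
      have h2 := (hstab _).1 h
      exact hsA ((A.mul_mem_cancel_left (Subgroup.mem_subgroupOf.2 (hBA hb'))).1 h2)
    · exact Or.inl h
    · right; rw [h, hs'u]
  have hcardV : Nat.card v.Vec = 16 := by
    rw [q.card_vec hY (K := fun _ => K) hK hVD hDP hDn v hWD]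
    have h1 := PP_relIndex (e := e) (S := S) ({i}ᶜ ∩ K) K
    have h2 : ({i}ᶜ ∩ K : Set I) = K \ {i} := by rw [Set.sdiff_eq, Set.inter_comm]
    rw [h2, h15] at h1
    have h3 : (PP e S fun _ : Fin 1 => ({i}ᶜ ∩ K : Set I)).relIndex (PP e S fun _ => K) = 15 := by
      rw [h2]; exact h1
    rw [h3]
  have hinfA : S.P {i}ᶜ ⊓ S.P K = S.P (K \ {i}) := by
    rw [S.P_inf, Set.sdiff_eq, Set.inter_comm]
  have hr : RV ρ u A B s m := by
    refine ⟨hsq, hu1, hstab, hsurj, g.dec, fun b hb => Subgroup.mem_subgroupOf.2 (hBA (Subgroup.mem_subgroupOf.1 hb)), ?_,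
      hcardV, hbB, ⟨⟨x, hPiK (hBi hx)⟩, Subgroup.mem_subgroupOf.2 (hBA hx), hs'u⟩, ?_⟩
    · have h1 : A = (S.P (K \ {i})).subgroupOf (S.P K) := by
        rw [← hinfA]
        exact (Subgroup.inf_subgroupOf_right _ _).symm
      rw [h1]
      show ((S.P ∅).subgroupOf (S.P K)).relIndex _ = 3
      rw [Subgroup.relIndex_subgroupOf (S.P_mono Set.sdiff_subset)]
      exact h3
    · by_contra hcon
      push Not at hcon
      have hall : ∀ a ∈ A, ρ (a * s) u = ρ s u ∨ ρ (a * s) u = ρ s u * u := by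
        intro a ha
        by_cases h1 : ρ (a * s) u = ρ s u
        · exact Or.inl h1
        · exact Or.inr (hcon a ha h1)
      let T : Subgroup (S.P K) :=
        { carrier := {k | (∀ y ∈ Z, ρ k y ∈ Z) ∧ ∀ y ∈ Z, ρ k⁻¹ y ∈ Z}
          one_mem' := ⟨fun y hy => by rw [map_one]; exact hy, fun y hy => by rw [inv_one, map_one]; exact hy⟩
          mul_mem' := fun {k l} hk hl => ⟨fun y hy => by rw [hrm]; exact hk.1 _ (hl.1 _ hy),
            fun y hy => by rw [mul_inv_rev, hrm]; exact hl.2 _ (hk.2 _ hy)⟩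
          inv_mem' := fun {k} hk => ⟨hk.2, by rw [inv_inv]; exact hk.1⟩ }
      have hA : ∀ a ∈ A, ∀ y ∈ Z, ρ a y ∈ Z := by
        intro a ha y hy
        have hau : ρ a u = u := (hstab a).2 ha
        have h5 : ρ a (ρ s u) ∈ Z := by
          rw [← hrm]
          rcases hall a ha with h | h
          · rw [h]; exact hsZ
          · rw [h]; exact mul_mem hsZ huZ
        rcases claimZ y hy with rfl | rfl | rfl | rfl
        · rw [map_one]; exact one_mem _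
        · rw [hau]; exact huZ
        · exact h5
        · rw [hs'u, map_mul, hau]
          exact mul_mem h5 huZ
      have h1 : (S.P (K \ {i})).subgroupOf (S.P K) ⊔ (S.P {i}).subgroupOf (S.P K) ≤ T := by
        apply sup_le
        · intro a ha
          have ha' : a ∈ A := by
            apply Subgroup.mem_subgroupOf.2
            have := Subgroup.mem_subgroupOf.1 ha
            rw [← hinfA] at this
            exact this.1
          exact ⟨hA a ha', hA _ (inv_mem ha')⟩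
        · intro a ha
          exact ⟨fun y hy => (hactZ a (Subgroup.mem_subgroupOf.1 ha) y).2 hy,
            fun y hy => (hactZ a⁻¹ (Subgroup.mem_subgroupOf.1 (inv_mem ha)) y).2 hy⟩
      rw [← Subgroup.subgroupOf_sup (S.P_mono Set.sdiff_subset) hPiK, S.P_sup,
        Set.sdiff_union_of_subset (Set.singleton_subset_iff.2 hiK), Subgroup.subgroupOf_self, top_le_iff] at h1
      have h2 : ∀ y : v.Vec, y ∈ Z := by
        intro y
        by_cases hy : y = 1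
        · rw [hy]; exact one_mem _
        obtain ⟨k, rfl⟩ := hsurj y hy
        exact (show k ∈ T by rw [h1]; trivial).1 u huZ
      let f : Fin 4 → v.Vec := ![1, u, ρ s u, ρ s' u]
      have hf : Function.Surjective f := by
        intro y
        rcases claimZ y (h2 y) with h | h | h | h
        · exact ⟨0, h.symm⟩
        · exact ⟨1, h.symm⟩
        · exact ⟨2, h.symm⟩
        · exact ⟨3, h.symm⟩
      have h4 := Nat.card_le_card_of_surjective f hf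
      rw [hcardV, Nat.card_fin] at h4
      omega
  have l := g.pol hr
  -- the local geometry
  have hsg : ∀ g : N, sg e 0 (e g 0) = (g : G) := by
    intro g
    rw [← H869.EPO.cp_coe (e := e)]
    apply ext_cp e (sg_mem e 0 _) g.2
    intro j
    have : j = 0 := Subsingleton.elim _ _
    rw [this, cp_sg]
  have hsgN : ∀ y : Y, ∃ g : N, (g : G) = sg e 0 y ∧ e g 0 = y := by
    intro y
    refine ⟨⟨sg e 0 y, sg_mem e 0 y⟩, rfl, ?_⟩
    rw [← H869.EPO.cp_coe (e := e)]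
    exact cp_sg e 0 y
  have tg : TGeo H N w₀ (rho e (S.P {i}ᶜ)) ((1 : Y) : Y ⧸ S.P {i}ᶜ) (sperp (S.P {i}ᶜ) D)
      (SLn (S.P {i}ᶜ) (S.P K) ρ u) := by
    constructor
    · exact q.ep
    · exact q.minN.le
    · exact hw₀H
    · exact hDH hww
    · intro y hy
      by_cases hyH : y ∈ H
      · exact Or.inl hyH
      right
      have h3 : H ⊓ cj y H = PH H e S fun _ => {i}ᶜ := by
        rw [← hM, ← hw₀M]
        exact two_eq q.ep hw₀H hyH hy
      exact q.line' hw₀H hyH hw₀M h3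
    · intro y hy
      obtain ⟨n, hn, m, hm, rfl⟩ := MX.fac q.minN (mx_of_two q.ep q.minN q.twoM) hy
      refine ⟨n, hn, ?_⟩
      rw [inv_mul_cancel_left]
      rw [← hM, ← hw₀M] at hm
      exact hm.2
    · intro y
      obtain ⟨y, rfl⟩ := QuotientGroup.mk_surjective y
      obtain ⟨g, -, hg⟩ := hsgN y
      refine ⟨g, ?_⟩
      rw [rho_mk, hg, mul_one]
    · intro k
      rw [rho_mk, mul_one, eq_comm, QuotientGroup.eq, inv_one, one_mul, ← hsgM, hsg]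
    · exact g.refl'
    · exact g.symm'
    · intro k y z hyz
      obtain ⟨y, rfl⟩ := QuotientGroup.mk_surjective y
      obtain ⟨z, rfl⟩ := QuotientGroup.mk_surjective z
      exact g.inv' (e k 0) hyz
    · exact g.line' hr
    · intro a b c d
      exact g.oa' hr a b c d
    · rintro a b c ⟨k, k₁, k₂, k₃, rfl, rfl, rfl, h4⟩
      obtain ⟨n, -, hn⟩ := hsgN (k * k₁)
      obtain ⟨n₂, hn₂, hn₂'⟩ := hsgN ((k₁ : Y)⁻¹ * k₂)
      obtain ⟨n₃, hn₃, hn₃'⟩ := hsgN ((k₁ : Y)⁻¹ * k₃)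
      have e0 : ((k * (k₁ : Y) : Y) : Y ⧸ S.P {i}ᶜ) = rho e (S.P {i}ᶜ) n ((1 : Y) : Y ⧸ S.P {i}ᶜ) := by
        rw [rho_mk, hn, mul_one]
      have e1 : ((k * (k₂ : Y) : Y) : Y ⧸ S.P {i}ᶜ) = rho e (S.P {i}ᶜ) (n * n₂) ((1 : Y) : Y ⧸ S.P {i}ᶜ) := by
        rw [rho_mk, map_mul, Pi.mul_apply, hn, hn₂', mul_one]
        congr 1
        group
      have e2 : ((k * (k₃ : Y) : Y) : Y ⧸ S.P {i}ᶜ) = rho e (S.P {i}ᶜ) (n * n₃) ((1 : Y) : Y ⧸ S.P {i}ᶜ) := by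
        rw [rho_mk, map_mul, Pi.mul_apply, hn, hn₃', mul_one]
        congr 1
        group
      have key : ∀ l l' : S.P K, u * ρ l u * ρ l' u = 1 →
          (sg e 0 (l' : Y) * w₀)⁻¹ * (w₀ * sg e 0 (l : Y) * w₀) ∈ H := by
        intro l l' hl
        have h5 : v.vec (⟨w₀, hw₀⟩ * ⟨sg e 0 (l : Y) * w₀ * (sg e 0 (l : Y))⁻¹, v.Wn _ (hPP (hsgP l.2)) w₀ hw₀⟩) =
            v.vec ⟨sg e 0 (l' : Y) * w₀ * (sg e 0 (l' : Y))⁻¹, v.Wn _ (hPP (hsgP l'.2)) w₀ hw₀⟩ := by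
          rw [map_mul, ← hρu, ← hρu]
          exact (heq _ _ hl).symm
        have h6 : (w₀ * (sg e 0 (l : Y) * w₀ * (sg e 0 (l : Y))⁻¹))⁻¹ *
            (sg e 0 (l' : Y) * w₀ * (sg e 0 (l' : Y))⁻¹) ∈ D₁ := v.vec_eq_iff.1 h5
        have e5 : (sg e 0 (l' : Y) * w₀)⁻¹ * (w₀ * sg e 0 (l : Y) * w₀) = (sg e 0 (l' : Y))⁻¹ *
            ((w₀ * (sg e 0 (l : Y) * w₀ * (sg e 0 (l : Y))⁻¹))⁻¹ *
              (sg e 0 (l' : Y) * w₀ * (sg e 0 (l' : Y))⁻¹))⁻¹ * sg e 0 (l : Y) := by group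
        rw [e5]
        exact mul_mem (mul_mem (inv_mem (q.minN.le (sg_mem e 0 _))) (inv_mem (hDH h6))) (q.minN.le (sg_mem e 0 _))
      have h5 : u * ρ (k₁⁻¹ * k₂) u * ρ (k₁⁻¹ * k₃) u = 1 := by
        have h6 : ρ k₁ (u * ρ (k₁⁻¹ * k₂) u * ρ (k₁⁻¹ * k₃) u) = 1 := by
          rw [map_mul, map_mul, ← hrm, ← hrm, mul_inv_cancel_left, mul_inv_cancel_left]
          exact h4
        rwa [map_eq_one_iff _ (MulEquiv.injective _)] at h6
      have h5' : u * ρ (k₁⁻¹ * k₃) u * ρ (k₁⁻¹ * k₂) u = 1 := by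
        rw [mul_right_comm]; exact h5
      refine ⟨n, n₂, n₃, e0, e1, e2, ?_, ?_⟩
      · rw [hn₂, hn₃]
        exact key _ _ h5
      · rw [hn₂, hn₃]
        exact key _ _ h5'
    · intro y z hy hz
      obtain ⟨y, rfl⟩ := QuotientGroup.mk_surjective y
      obtain ⟨z, rfl⟩ := QuotientGroup.mk_surjective z
      obtain ⟨p, hp, h3⟩ := g.opp' hy hz
      obtain ⟨n, -, hn⟩ := hsgN p
      refine ⟨n, ?_, ?_⟩
      · rw [rho_mk, hn, mul_one, eq_comm, QuotientGroup.eq, inv_one, one_mul]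
        exact hp
      · rw [show rho e (S.P {i}ᶜ) n (QuotientGroup.mk y) = _ from rho_mk _ n y, hn]
        exact h3
  exact tg.index_le (fun e S h1 h2 h3 => l.conn e S h1 h2 h3) (fun e e' _ h1 => l.oinj e e' h1)

end

end Cfsg.Agent.H355.EPO
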