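import Cfsg.Agent.H355.EPO.SpinW
import Cfsg.Agent.H355.EPO.SpinQ2
import Cfsg.Agent.H869.EPO.GeoRGD
import Cfsg.Agent.H705.Dl.PsRgd
import Cfsg.Agent.H284.EPO.TThree

/-!
# S5745, OWN characteristic, `T = Sp₆(2)`, the last node: root group data (helper355)

`spin_index_le` : `|G : H| ≤ 135 * 136` in the state `Q2` for a root group datum of type `B₃` with `|X_j| = 2` and the
last node.
-/

set_option autoImplicit false
set_option linter.unusedSectionVars false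

namespace Cfsg.Agent.H355.EPO

open Cfsg.Agent.H284 Cfsg.Agent.H209.EPX Cfsg.Agent.H737.EPO Cfsg.Agent.H869.EPO
open CoxeterSystem Cfsg.Agent.ChevalleyStructure.CoxeterGeom Cfsg.Agent.Tits.Roots Cfsg.Agent.Tits.Core
  Cfsg.Agent.Tits.RootComb Cfsg.Agent.Tits.Exchange Cfsg.Agent.Nodes.Reps Cfsg.Agent.Nodes.BNOf
  Cfsg.Agent.Nodes.StabComb Cfsg.Agent.Nodes.Bruhat Cfsg.Agent.Nodes.OppDec Cfsg.Agent.Nodes.LeviDec
  Cfsg.Agent.Nodes.Coroot Cfsg.Agent.KFacts.RgdPar Cfsg.Agent.KFacts.RgdSL Cfsg.Agent.KFacts.RgdVJ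
  Cfsg.Agent.KFacts.RgdCharP

section

variable {W Y : Type*} [Group W] [Finite W] [Group Y] [Finite Y] {cs : CoxeterSystem (CoxeterMatrix.B 3) W}
  {A : Fin 3 → Fin 3 → ℤ} {h : IsCartan (CoxeterMatrix.B 3) A} {T : Subgroup Y} {n : Fin 3 → Y}
  {X : (Fin 3 → ℤ) → Subgroup Y} (R : RGD cs h 2 T n X)

include R

/-- the last double coset -/
def DD : Set Y := {g | ∃ v, Cell R.nsys cs h X v g ∧ Opp cs v}

theorem mem_DD {v : W} {g : Y} (hg : Cell R.nsys cs h X v g) : g ∈ DD R ↔ Opp cs v := by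
  constructor
  · rintro ⟨w, hw, ho⟩
    rwa [Cell.unique R hg hw]
  · exact fun ho => ⟨v, hg, ho⟩

theorem split {J L : Set (Fin 3)} {v u d u' : W} (hu : u ∈ WJ cs J) (hu' : u' ∈ WJ cs L) (hv : v = u * d * u')
    {k g : Y} (hk : Rp cs R.nsys d k) (hg : Cell R.nsys cs h X v g) :
    ∃ p ∈ PJ cs h T X J, ∃ p' ∈ PJ cs h T X L, g = p * k * p' := by
  obtain ⟨b, hb, m, hm, b', hb', rfl⟩ := hg
  obtain ⟨a, ha⟩ := exists_rp cs R.nsys u
  obtain ⟨a', ha'⟩ := exists_rp cs R.nsys u'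
  have h1 : Rp cs R.nsys 1 ((a * k * a')⁻¹ * m) := by
    have := ((ha.mul hk).mul ha').inv.mul hm
    rwa [hv, inv_mul_cancel] at this
  refine ⟨b * a, mul_mem (B_le_PJ hb) (LJ_le_PJ (rp_mem_LJ R hu ha)), a' * ((a * k * a')⁻¹ * m) * b',
    mul_mem (mul_mem (LJ_le_PJ (rp_mem_LJ R hu' ha')) (B_le_PJ (RGD.T_le_B h1.mem_of_one))) (B_le_PJ hb'), ?_⟩
  group

omit [Finite W] [Finite Y] R in
theorem WJ_le {J L : Set (Fin 3)} (hJL : J ⊆ L) : WJ cs J ≤ WJ cs L := Subgroup.closure_mono (Set.image_mono hJL)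

omit R in
theorem sub1 : ({1} : Set (Fin 3)) ⊆ {2}ᶜ := by
  rintro j rfl
  simp

omit R in
theorem sub2 : ({1} : Set (Fin 3)) ⊆ {1, 2} := by
  rintro j rfl
  simp

theorem nQ {j : Fin 3} (hj : j ∈ ({1, 2} : Set (Fin 3))) : n j ∈ PJ cs h T X {1, 2} := LJ_le_PJ (n_mem_LJ R hj)

theorem rpm : Rp cs R.nsys (cs.simple 2 * cs.simple 1 * cs.simple 2) (n 2 * n 1 * n 2) :=
  ((rp_simple cs R.nsys 2).mul (rp_simple cs R.nsys 1)).mul (rp_simple cs R.nsys 2)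

theorem rpz : Rp cs R.nsys (cs.simple 0 * cs.simple 1 * cs.simple 2) (n 0 * n 1 * n 2) :=
  ((rp_simple cs R.nsys 0).mul (rp_simple cs R.nsys 1)).mul (rp_simple cs R.nsys 2)

theorem z_aux {a k : Y} (ha : a ∈ PJ cs h T X {1}) {d : W} (hk : Rp cs R.nsys d k)
    (hd : d ∈ WJ cs ({1, 2} : Set (Fin 3))) : ∃ e : W, (e = 1 ∨ e = cs.simple 1) ∧
      ((n 0 * n 1 * n 2)⁻¹ * (a * k) ∈ DD R ↔ Opp cs ((cs.simple 0 * cs.simple 1 * cs.simple 2)⁻¹ * (e * d))) := by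
  obtain ⟨e, he, hc⟩ := Cfsg.Agent.H705.Dl.PsRgd.cell_left R ha (cell_of_rp (X := X) (h := h) hk)
  refine ⟨e, mem_one cs he, ?_⟩
  have h1 := minR cs (e * d) (mul_mem (WJ_le sub2 he) hd)
  exact mem_DD R (Cell.mul_of_length R h1 (cell_of_rp (rpz R).inv) hc)

theorem sg_of (hG : GG cs h T X = ⊤) (hinf : PJ cs h T X {1, 2} ⊓ PJ cs h T X {2}ᶜ ≤ PJ cs h T X {1}) :
    SG (PJ cs h T X {2}ᶜ) (PJ cs h T X {1, 2}) (DD R) ⟨n 2, nQ R (by simp)⟩
      ⟨n 2 * n 1 * n 2, mul_mem (mul_mem (nQ R (by simp)) (nQ R (by simp))) (nQ R (by simp))⟩ (n 0 * n 1 * n 2) := by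
  have hcell : ∀ g : Y, ∃ v, Cell R.nsys cs h X v g := fun g => (mem_GG R).1 (show g ∈ GG cs h T X by rw [hG]; trivial)
  have h1K : (cs.simple 1) ∈ WJ cs ({1, 2} : Set (Fin 3)) := simple_mem_WJ cs (by simp)
  have h2K : (cs.simple 2) ∈ WJ cs ({1, 2} : Set (Fin 3)) := simple_mem_WJ cs (by simp)
  have hrp1 : Rp cs R.nsys 1 (1 : Y) := rp_of_mem (cs := cs) (hN := R.nsys) (one_mem T)
  have hrw : Rp cs R.nsys (cs.simple 2 * cs.simple 1 * cs.simple 0 * cs.simple 2 * cs.simple 1 * cs.simple 2)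
      (n 2 * n 1 * n 0 * n 2 * n 1 * n 2) :=
    (((((rp_simple cs R.nsys 2).mul (rp_simple cs R.nsys 1)).mul (rp_simple cs R.nsys 0)).mul
      (rp_simple cs R.nsys 2)).mul (rp_simple cs R.nsys 1)).mul (rp_simple cs R.nsys 2)
  have hnot : ∀ {v u d u' : W}, u ∈ WJ cs ({2}ᶜ : Set (Fin 3)) → u' ∈ WJ cs ({2}ᶜ : Set (Fin 3)) → v = u * d * u' →
      (d = 1 ∨ d = cs.simple 2 ∨ d = cs.simple 2 * cs.simple 1 * cs.simple 2) → ¬ Opp cs v := by
    intro v u d u' hu hu' hv hd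
    rw [hv, opp_mul cs hu hu']
    rcases hd with rfl | rfl | rfl
    · exact not_opp_one cs
    · exact not_opp_c cs
    · exact not_opp_m cs
  have hform : ∀ g ∈ DD R, ∃ p ∈ PJ cs h T X {2}ᶜ, ∃ p' ∈ PJ cs h T X {2}ᶜ,
      g = p * (n 2 * n 1 * n 0 * n 2 * n 1 * n 2) * p' := by
    rintro g ⟨v, hc, ho⟩
    obtain ⟨u, hu, u', hu', d, hd, hv⟩ := four cs v
    rcases hd with hd | hd | hd | hd
    · exact absurd ho (hnot hu hu' hv (Or.inl hd))
    · exact absurd ho (hnot hu hu' hv (Or.inr (Or.inl hd)))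
    · exact absurd ho (hnot hu hu' hv (Or.inr (Or.inr hd)))
    · subst hd
      exact split R hu hu' hv hrw hc
  refine ⟨?_, ?_, ?_, ?_, ?_, ?_, ?_, ?_, ?_, ?_, ?_⟩
  · rintro p hp p' hp' g ⟨v, hc, ho⟩
    obtain ⟨v₁, hv₁, hc₁⟩ := Cfsg.Agent.H705.Dl.PsRgd.cell_left R hp hc
    obtain ⟨v₂, hv₂, hc₂⟩ := Cfsg.Agent.H705.Dl.PsRgd.cell_right R hp' hc₁
    exact ⟨_, hc₂, (opp_mul cs hv₁ hv₂).2 ho⟩
  · rintro g ⟨v, hc, ho⟩
    exact ⟨_, hc.inv, opp_inv cs ho⟩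
  · intro g hg g' hg'
    obtain ⟨p, hp, p', hp', rfl⟩ := hform g hg
    obtain ⟨q, hq, q', hq', rfl⟩ := hform g' hg'
    refine ⟨q * p⁻¹, mul_mem hq (inv_mem hp), p'⁻¹ * q', mul_mem (inv_mem hp') hq', ?_⟩
    group
  · intro g hg
    obtain ⟨v, hc⟩ := hcell g
    have ho : ¬ Opp cs v := fun ho => hg ⟨v, hc, ho⟩
    obtain ⟨u, hu, u', hu', d, hd, hv⟩ := four cs v
    rcases hd with rfl | rfl | rfl | rfl
    · obtain ⟨p, hp, p', hp', h1⟩ := split R hu hu' hv hrp1 hc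
      exact ⟨p, hp, 1, one_mem _, p', hp', h1⟩
    · obtain ⟨p, hp, p', hp', h1⟩ := split R hu hu' hv (rp_simple cs R.nsys 2) hc
      exact ⟨p, hp, _, nQ R (by simp), p', hp', h1⟩
    · obtain ⟨p, hp, p', hp', h1⟩ := split R hu hu' hv (rpm R) hc
      exact ⟨p, hp, _, mul_mem (mul_mem (nQ R (by simp)) (nQ R (by simp))) (nQ R (by simp)), p', hp', h1⟩
    · exfalso
      apply ho
      rw [hv, opp_mul cs hu hu']
      exact opp_w cs
  · intro k hk hkD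
    obtain ⟨w, hw, hc⟩ := (mem_PJ_iff_cell R).1 hk
    obtain ⟨u, hu, u', hu', d, hd, hv⟩ := wk cs hw
    exact hnot (WJ_le sub1 hu) (WJ_le sub1 hu') hv hd ((mem_DD R hc).1 hkD)
  · intro g
    obtain ⟨v, hc⟩ := hcell g
    obtain ⟨k, hk, u, hu, hv | hv⟩ := two cs v
    · left
      obtain ⟨p, hp, p', hp', h1⟩ := split R (d := 1) hk hu (by rw [hv, mul_one]) hrp1 hc
      exact ⟨p, hp, p', hp', by rw [h1, mul_one]⟩
    · right
      exact split R hk hu hv (rpz R) hc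
  · have c1 : Cell R.nsys cs h X (cs.simple 2) (n 2) := cell_of_rp (rp_simple cs R.nsys 2)
    have c2 : Cell R.nsys cs h X (cs.simple 2 *
        (cs.simple 2 * cs.simple 1 * cs.simple 0 * cs.simple 2 * cs.simple 1 * cs.simple 2))
        (n 2 * (n 2 * n 1 * n 0 * n 2 * n 1 * n 2)) := cell_of_rp ((rp_simple cs R.nsys 2).mul hrw)
    refine ⟨n 2, n 2 * (n 2 * n 1 * n 0 * n 2 * n 1 * n 2), ?_, ?_, ?_⟩
    · rw [mem_DD R c1]; exact not_opp_c cs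
    · rw [mem_DD R c2]; exact not_opp_cw cs
    · rw [inv_mul_cancel_left, mem_DD R (cell_of_rp hrw)]
      exact opp_w cs
  · rintro ⟨k, hk⟩
    obtain ⟨w, hw, hc⟩ := (mem_PJ_iff_cell R).1 hk
    obtain ⟨u, hu, u', hu', d, hd, hv⟩ := wk cs hw
    have hm : ∀ {p : Y}, p ∈ PJ cs h T X {1} → p ∈ PJ cs h T X {1, 2} ∧ p ∈ PJ cs h T X {2}ᶜ := fun hp =>
      ⟨H470.EPK.PJ_mono sub2 hp, H470.EPK.PJ_mono sub1 hp⟩
    rcases hd with rfl | rfl | rfl
    · left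
      obtain ⟨p, hp, p', hp', h1⟩ := split R hu hu' hv hrp1 hc
      rw [Subgroup.mem_subgroupOf]
      show k ∈ _
      rw [h1, mul_one]
      exact mul_mem (hm hp).2 (hm hp').2
    · right; left
      obtain ⟨p, hp, p', hp', h1⟩ := split R hu hu' hv (rp_simple cs R.nsys 2) hc
      exact ⟨⟨p, (hm hp).1⟩, Subgroup.mem_subgroupOf.2 (hm hp).2, ⟨p', (hm hp').1⟩,
        Subgroup.mem_subgroupOf.2 (hm hp').2, Subtype.ext h1⟩
    · right; right
      obtain ⟨p, hp, p', hp', h1⟩ := split R hu hu' hv (rpm R) hc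
      exact ⟨⟨p, (hm hp).1⟩, Subgroup.mem_subgroupOf.2 (hm hp).2, ⟨p', (hm hp').1⟩,
        Subgroup.mem_subgroupOf.2 (hm hp').2, Subtype.ext h1⟩
  · intro a ha
    obtain ⟨e, he, h1⟩ := z_aux R (hinf ⟨a.2, Subgroup.mem_subgroupOf.1 ha⟩) hrp1 (one_mem _)
    rw [mul_one] at h1
    rw [h1]
    exact (opp_z cs he).1
  · intro a ha
    obtain ⟨e, he, h1⟩ := z_aux R (hinf ⟨a.2, Subgroup.mem_subgroupOf.1 ha⟩) (rp_simple cs R.nsys 2) h2K
    show (n 0 * n 1 * n 2)⁻¹ * ((a : Y) * n 2) ∉ DD R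
    rw [h1]
    exact (opp_z cs he).2.1
  · intro a ha
    obtain ⟨e, he, h1⟩ := z_aux R (hinf ⟨a.2, Subgroup.mem_subgroupOf.1 ha⟩) (rpm R)
      (mul_mem (mul_mem h2K h1K) h2K)
    show (n 0 * n 1 * n 2)⁻¹ * ((a : Y) * (n 2 * n 1 * n 2)) ∈ DD R
    rw [h1]
    exact (opp_z cs he).2.2

/-- `P_j = B ∪ n_j B ∪ x n_j B` -/
theorem three_of {j : Fin 3} (hq : Nat.card (X (sr j)) = 2) : ∃ x ∈ RGD.B cs h T X, ∀ g ∈ PJ cs h T X {j},
    g ∈ RGD.B cs h T X ∨ (n j)⁻¹ * g ∈ RGD.B cs h T X ∨ (x * n j)⁻¹ * g ∈ RGD.B cs h T X := by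
  obtain ⟨x, hx, hx1⟩ : ∃ x ∈ X (sr j), x ≠ 1 := by
    by_contra hcon
    push Not at hcon
    exact X_ne_bot R (isRoot_sr cs h j) ((Subgroup.eq_bot_iff_forall _).2 hcon)
  have htwo : ∀ a ∈ X (sr j), a = 1 ∨ a = x := by
    intro a ha
    by_contra hcon
    push Not at hcon
    let f : Fin 3 → X (sr j) := ![⟨1, one_mem _⟩, ⟨x, hx⟩, ⟨a, ha⟩]
    have hf : Function.Injective f := by
      intro j k hjk
      have h1 : (f j : Y) = f k := congrArg Subtype.val hjk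
      fin_cases j <;> fin_cases k
      · rfl
      · exact absurd h1 (Ne.symm hx1)
      · exact absurd h1 (Ne.symm hcon.1)
      · exact absurd h1 hx1
      · rfl
      · exact absurd h1 (Ne.symm hcon.2)
      · exact absurd h1 hcon.1
      · exact absurd h1 hcon.2
      · rfl
    have h2 := Nat.card_le_card_of_injective f hf
    rw [hq, Nat.card_fin] at h2
    omega
  have hxU : x ∈ RGD.Sup X (RGD.Pos cs h) := RGD.le_Sup (S := RGD.Pos cs h) ⟨isRoot_sr cs h j, sr_nonneg j⟩ hx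
  refine ⟨x, RGD.U_le_B hxU, fun g hg => ?_⟩
  by_cases hgB : g ∈ RGD.B cs h T X
  · exact Or.inl hgB
  right
  obtain ⟨a, ha, b, hb, rfl⟩ := mem_Pi R hg hgB
  rcases htwo a ha with rfl | rfl
  · left
    have e1 : (n j)⁻¹ * (1 * n j * b) = b := by group
    rwa [e1]
  · right
    have e1 : (a * n j)⁻¹ * (a * n j * b) = b := by group
    rwa [e1]

end

/-- **The last node of `Sp₆(2)`**: `|G : H| ≤ 135 * 136`. -/
theorem spin_index_le {W G Y : Type*} [Group W] [Group Y]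
    {cs : CoxeterSystem (CoxeterMatrix.B 3) W} {A : Fin 3 → Fin 3 → ℤ} {h : IsCartan (CoxeterMatrix.B 3) A}
    {T : Subgroup Y} {n : Fin 3 → Y} {X : (Fin 3 → ℤ) → Subgroup Y} (R : RGD cs h 2 T n X) [Finite W] [Finite Y]
    (hBT : BT cs h 2 T X) (hG : GG cs h T X = ⊤) (hX : RGD.Sup X {x | IsRoot cs h x} = ⊤)
    (hconn : Conn (CoxeterMatrix.B 3)) [Group G] [Finite G] [IsSimpleGroup Y] (hY : ∃ a b : Y, a * b ≠ b * a)
    {H N R' : Subgroup G} {e : N ≃* (Fin 1 → Y)} {t : G} [Fact (Nat.Prime 2)]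
    (hq : ∀ j, Nat.card (X (sr j)) = 2) (q : Q2 H R' e (ofRGD R hBT hG hX hconn) 2 t) :
    H.index ≤ 135 * 136 := by
  set S := ofRGD R hBT hG hX hconn with hS
  have hB : S.P ∅ = RGD.B cs h T X := PJ_empty R
  have hP : ∀ J, S.P J = PJ cs h T X J := fun _ => rfl
  have e1 : ({1, 2} \ {2} : Set (Fin 3)) = {1} := by
    ext j
    fin_cases j <;> simp
  have hinf : PJ cs h T X {1, 2} ⊓ PJ cs h T X {2}ᶜ ≤ PJ cs h T X {1} := by
    have h1 := S.P_inf {1, 2} {2}ᶜ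
    rw [hP, hP, hP, ← Set.sdiff_eq, e1] at h1
    exact h1.le
  obtain ⟨x, hx, h3⟩ := three_of R (hq 2)
  have hM23 : CoxeterMatrix.B 3 1 2 = 4 := by decide
  have hM12 : CoxeterMatrix.B 3 0 1 = 3 := by decide
  have hM13 : CoxeterMatrix.B 3 0 2 = 2 := by decide
  have h4 := H284.TThree.cart4 h hM23
  have hB2 := H284.TThree.card_B2 R h4 (hq 1) (hq 2)
  have hc1 := H284.TThree.card_one R (hq 1)
  have hcB : 0 < Nat.card ↥(RGD.B cs h T X) := Nat.card_pos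
  have i15 : (S.P ({1, 2} \ {2})).relIndex (S.P {1, 2}) = 15 := by
    rw [e1]
    apply H284.TThree.relIndex_of_card sub2
    rw [hB2, hc1]
    ring
  have i3 : (S.P ∅).relIndex (S.P ({1, 2} \ {2})) = 3 := by
    rw [e1]
    apply H284.TThree.relIndex_of_card (Set.empty_subset _)
    rw [hc1, show PJ cs h T X ∅ = RGD.B cs h T X from PJ_empty R]
  have hidx : (S.P {2}ᶜ).index = 135 := by
    have hA2 := H284.TThree.card_A2 R (H284.TThree.cart3 h hM12).1 (H284.TThree.cart3 h hM12).2 (hq 0) (hq 1)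
    have hB3 := H284.TThree.card_B3 R (H284.TThree.cart3 h hM12) h4 (H284.TThree.cart2 h hM13) (hq 0) (hq 1) (hq 2)
    have e2 : ({2}ᶜ : Set (Fin 3)) = {0, 1} := by
      ext j
      fin_cases j <;> simp
    have e3 : (Set.univ : Set (Fin 3)) = {0, 1, 2} := by
      ext j
      fin_cases j <;> simp
    rw [← Subgroup.relIndex_top_right, ← S.P_univ]
    apply H284.TThree.relIndex_of_card (Set.subset_univ _)
    rw [e2, e3, hA2, hB3]
    ring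
  have h5 := index_le_spin hY q (K := {1, 2}) (by simp) (by
    intro h1
    have : (0 : Fin 3) ∈ ({1, 2} : Set (Fin 3)) := by rw [h1]; trivial
    simp at this) (sg_of R hG hinf) (LJ_le_PJ (n_mem_LJ R (Set.mem_singleton 2))) (by
      show n 2 ∉ PJ cs h T X {2}ᶜ
      rw [cell_mem_PJ_iff R (cell_of_rp (rp_simple cs R.nsys 2)), simple_mem_WJ_iff h]
      simp) (x := x) (by rw [hB]; exact hx) (by
      intro y hy
      rw [hB]
      exact h3 y hy) i15 i3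
  rw [hidx] at h5
  exact h5

end Cfsg.Agent.H355.EPO
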